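import Cfsg.Agent.BX.No33.FrontA
import Cfsg.Agent.BMx.Fast
import Cfsg.Agent.H863.U33.ChkAll
set_option linter.all false

/-!
# No maximal `L₃(3)` : the front (helper20)

A maximal subgroup `L₃(3)` of `G` is conjugate to `⟨A, y, c⟩`, `y = g wy1`, `A = g wAd` (diagonal case) or `A = g wAp` (pure case).
-/

set_option autoImplicit false
set_option maxRecDepth 100000
set_option Elab.async false

namespace Cfsg.Agent.BX.No33.Front

open Cfsg.Agent.BabyM.Conc Cfsg.Agent.H819.U33 Cfsg.Agent.BMx.Fast Cfsg.Agent.BX.Max Cfsg.Agent.BX.Iso.P33 Subgroup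
open Cfsg.Agent.H863.U33 (wy1)

/-- of order 13, pure case -/
def wAp : List Ltr :=
  [.z, .Z8, .Z7, .Z5, .Z2, .Z1, .X10, .X4, .X2, .y9, .y8, .y7, .y5, .y4, .y3, .hi, .p5, .hi, .p7, .hi, .p9, .hi, .p9,
   .xii, .y2, .p5, .hi, .p8, .hi, .taui, .X0, .p10, .xii, .y2, .hi, .xii, .y1, .p8, .taui, .X0, .p7, .xii, .hi, .xii,
   .y6, .p2, .taui, .xii, .p, .xii, .y4, .p, .xii, .y4]

/-- of order 13, diagonal case -/
def wAd : List Ltr :=
  [.z, .Z9, .Z8, .Z3, .Z2, .Z1, .Z0, .X10, .X9, .X8, .X7, .X4, .X2, .X1, .y1, .p10, .hi, .p10, .hi, .p8, .hi, .p6,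
   .hi, .p2, .hi, .xii, .y2, .p10, .xii, .y10, .p3, .hi, .taui, .y1, .xii, .p10, .xii, .y8, .p10, .xii, .y3, .y7,
   .tau, .y1, .xii, .p10, .xii, .y1, .p10, .xii, .y3, .y5, .taui, .X0, .p7, .xii, .y4, .p4, .xii, .tau, .xii, .y2,
   .p4, .xii, .y5, .p10, .xii, .y10, .tau, .xii, .y6, .p4]

/-- of order 3, centralises `wAp` and `wy1` -/
def wsg : List Ltr :=
  [.z, .Z8, .Z3, .Z2, .Z0, .X10, .X9, .X8, .X7, .X5, .X4, .X3, .X2, .X0, .y10, .y9, .y8, .y6, .y5, .y3, .y2, .y1,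
   .p10, .hi, .p7, .hi, .p10, .hi, .p8, .hi, .p6, .hi, .p9, .tau, .p10, .xii, .y2, .p4, .hi, .xii, .y4, .y5, .y8,
   .taui, .xii, .hi, .p7, .xii, .y1, .y2, .tau, .xii, .p]

/-- inverts `wsg` -/
def wta : List Ltr :=
  [.Z9, .Z5, .Z3, .Z1, .X10, .X9, .X8, .X5, .X4, .X3, .X1, .y10, .y9, .y8, .y7, .y5, .p10, .hi, .p9, .hi, .p9, .hi,
   .p4, .hi, .p, .tau, .p10, .xii, .y2, .p4, .hi, .xii, .y4, .y5, .y8, .taui, .xii, .hi, .p7, .xii, .y1, .y2, .tau,
   .xii, .p]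

/-- of order 12, squares `wAp` -/
def wh : List Ltr :=
  [.Z9, .Z7, .Z6, .Z2, .Z1, .Z0, .X10, .X6, .X4, .X3, .X0, .y10, .y8, .y7, .y6, .y4, .y2, .y1, .hi, .p5, .hi, .p9,
   .hi, .p8, .hi, .p7, .hi, .p5, .hi, .xii, .y2, .p5, .hi, .p5]

/-- carries the diagonal case to `wy1` -/
def wv : List Ltr :=
  [.Z9, .Z8, .Z7, .Z6, .Z4, .Z3, .Z2, .Z0, .X10, .X7, .X6, .X3, .X2, .X1, .X0, .y9, .y8, .y6, .y4, .y3, .p10, .hi,
   .p8, .hi, .p7, .xii, .hi, .xii, .p9, .y4, .xii, .y6, .taui, .xii, .p, .xii, .y2, .hi, .xii, .y3, .taui, .p4, .xii,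
   .p4, .xii, .y4, .hi, .y10, .p4, .taui, .xii, .y2, .p5, .xii, .p9, .xii, .y1, .y7, .taui, .xii, .p, .xii]

theorem comm_of {v w : List Ltr} (h : eqF (v ++ w) (w ++ v) = true) : g v * g w = g w * g v := by
  rw [← g_append, ← g_append]; exact eq_of_eqF h

theorem conj_of {v w : List Ltr} {n : ℕ} (h : eqF (v ++ w) (pw w n ++ v) = true) : g v * g w * (g v)⁻¹ = g w ^ n := by
  rw [mul_inv_eq_iff_eq_mul, ← g_pw, ← g_append, ← g_append]; exact eq_of_eqF h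

theorem oAp : orderOf (g wAp) = 13 := orderOf_of_ordF (by decide +kernel)
theorem oy : orderOf (g wy1) = 3 := orderOf_of_ordF (by decide +kernel)
theorem osg : orderOf (g wsg) = 3 := orderOf_of_ordF (by decide +kernel)
theorem yAp : g wy1 * g wAp * (g wy1)⁻¹ = g wAp ^ 3 := conj_of (by decide +kernel)
theorem sgAp : g wsg * g wAp = g wAp * g wsg := comm_of (by decide +kernel)
theorem ysg : g wy1 * g wsg = g wsg * g wy1 := comm_of (by decide +kernel)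
theorem taAp : g wta * g wAp = g wAp * g wta := comm_of (by decide +kernel)
theorem tay : g wta * g wy1 = g wy1 * g wta := comm_of (by decide +kernel)
theorem tasg : g wta * g wsg * (g wta)⁻¹ = g wsg ^ 2 := conj_of (by decide +kernel)
theorem hAp : g wh * g wAp * (g wh)⁻¹ = g wAp ^ 2 := conj_of (by decide +kernel)
theorem hy : g wh * g wy1 = g wy1 * g wh := comm_of (by decide +kernel)
theorem hsg : g wh * g wsg = g wsg * g wh := comm_of (by decide +kernel)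

theorem vy : g wv * (g wy1 * g wsg) * (g wv)⁻¹ = g wy1 := by
  rw [mul_inv_eq_iff_eq_mul, ← g_append, ← g_append, ← g_append]
  exact eq_of_eqF (by decide +kernel)

theorem vA : g wv * g wAp * (g wv)⁻¹ = g wAd := by
  rw [mul_inv_eq_iff_eq_mul, ← g_append, ← g_append]
  exact eq_of_eqF (by decide +kernel)

theorem oAd : orderOf (g wAd) = 13 := by
  rw [← vA, ← oAp]
  exact (MulAut.conj (g wv)).orderOf_eq (g wAp)

theorem s13 : FrontA.S13 (g wAp) (g wy1) (g wsg) (g wta) (g wh) :=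
  ⟨oAp, oy, osg, yAp, sgAp, ysg, taAp, tay, tasg, hAp, hy, hsg⟩

/-- **the front**, with the generator itself -/
theorem front1 (hc : Nat.card G = nB) (h9 : ∀ x : G, orderOf x = 13 → ¬ 9 ∣ Nat.card (centralizer ({x} : Set G)))
    {M : Subgroup G} (hM : IsCoatom M) (e : Nonempty (M ≃* T33)) :
    ∃ A : G, (A = g wAd ∨ A = g wAp) ∧ ∃ c : G, R33 A (g wy1) c ∧ IsCoatom (closure ({A, g wy1, c} : Set G)) := by
  rcases FrontA.front_abs hc h9 s13 vy vA hM e with h | h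
  · exact ⟨_, Or.inr rfl, h⟩
  · exact ⟨_, Or.inl rfl, h⟩

/-- **the front** -/
theorem front (hc : Nat.card G = nB) (h9 : ∀ x : G, orderOf x = 13 → ¬ 9 ∣ Nat.card (centralizer ({x} : Set G)))
    {M : Subgroup G} (hM : IsCoatom M) (e : Nonempty (M ≃* T33)) :
    ∃ A : G, (A = g wAd ∨ A = g wAp) ∧ ∃ (m : ℕ) (c : G), A ^ m ≠ 1 ∧ R33 (A ^ m) (g wy1) c ∧
      IsCoatom (closure ({A ^ m, g wy1, c} : Set G)) := by
  obtain ⟨A, hA, c, r, h⟩ := front1 hc h9 hM e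
  refine ⟨A, hA, 1, c, ?_, by rwa [pow_one], by rwa [pow_one]⟩
  have oA : orderOf A = 13 := by
    rcases hA with rfl | rfl
    · exact oAd
    · exact oAp
  rw [pow_one]
  rintro rfl
  rw [orderOf_one] at oA
  exact absurd oA (by norm_num)

end Cfsg.Agent.BX.No33.Front
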