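import Cfsg.Agent.BX.No33.BaseD
import Cfsg.Agent.BX.No33.Front
import Cfsg.Agent.BX.No33.CovGlue
set_option linter.all false
open scoped Cfsg.Agent.FastGrp

/-!
# No maximal `L₃(3)` : the data are what they are said to be (helper13)
-/

set_option autoImplicit false
set_option maxRecDepth 100000
set_option Elab.async false

namespace Cfsg.Agent.BX.No33.Base

open Subgroup Cfsg.Agent.H819.U33 Cfsg.Agent.BMx.Fast Cfsg.Agent.BX.Cov Cfsg.Agent.BX.Frame.Fr3
open Cfsg.Agent.BabyM.Conc (Ltr)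
open Cfsg.Agent.BabyM.TransInv (winv)
open Cfsg.Agent.H863.U33 (wy1)

theorem cj_of {w : FW} {x c : List Ltr} (h : eqF (evw w ++ x) (x ++ c) = true) :
    ev gen3 w = g x * g c * (g x)⁻¹ := by
  rw [eq_mul_inv_iff_mul_eq, ← g_evw, ← g_append, ← g_append]
  exact eq_of_eqF h

theorem sh_of {w : FW} {x : List Ltr} (h : eqF (evw w) x = true) : ev gen3 w = g x := by
  rw [← g_evw]
  exact eq_of_eqF h

theorem fc0_eq : ev gen3 fc0 = g wg0 * g wc0 * (g wg0)⁻¹ := cj_of (by decide +kernel)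
theorem fc1_eq : ev gen3 fc1 = g wg1 * g wc1 * (g wg1)⁻¹ := cj_of (by decide +kernel)
theorem fe00_eq : ev gen3 fe00 = g wg0 * g we00 * (g wg0)⁻¹ := cj_of (by decide +kernel)
theorem fe01_eq : ev gen3 fe01 = g wg0 * g we01 * (g wg0)⁻¹ := cj_of (by decide +kernel)
theorem fe02_eq : ev gen3 fe02 = g wg0 * g we02 * (g wg0)⁻¹ := cj_of (by decide +kernel)
theorem fe03_eq : ev gen3 fe03 = g wg0 * g we03 * (g wg0)⁻¹ := cj_of (by decide +kernel)
theorem fe10_eq : ev gen3 fe10 = g wg1 * g we10 * (g wg1)⁻¹ := cj_of (by decide +kernel)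
theorem fe11_eq : ev gen3 fe11 = g wg1 * g we11 * (g wg1)⁻¹ := cj_of (by decide +kernel)
theorem fe12_eq : ev gen3 fe12 = g wg1 * g we12 * (g wg1)⁻¹ := cj_of (by decide +kernel)
theorem fe13_eq : ev gen3 fe13 = g wg1 * g we13 * (g wg1)⁻¹ := cj_of (by decide +kernel)
theorem fhd_eq : ev gen3 fhd = g whd := sh_of (by decide +kernel)
theorem fhp_eq : ev gen3 fhp = g Front.wh := sh_of (by decide +kernel)
theorem fs1_eq : ev gen3 fs1 = g Front.wsg := sh_of (by decide +kernel)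
theorem fs2_eq : ev gen3 fs2 = g ws2 := sh_of (by decide +kernel)

theorem fc_eq (k : Fin 2) : ev gen3 (fc k) = g (wg k) * g (wc k) * (g (wg k))⁻¹ :=
  match k with
  | 0 => fc0_eq
  | 1 => fc1_eq

theorem fe_eq (k : Fin 2) (i : Fin 4) : ev gen3 (fe k i) = g (wg k) * g (we k i) * (g (wg k))⁻¹ :=
  match k, i with
  | 0, 0 => fe00_eq
  | 0, 1 => fe01_eq
  | 0, 2 => fe02_eq
  | 0, 3 => fe03_eq
  | 1, 0 => fe10_eq
  | 1, 1 => fe11_eq
  | 1, 2 => fe12_eq
  | 1, 3 => fe13_eq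

/-- words for `fc k` -/
def cW (k : Fin 2) : List Ltr := wg k ++ wc k ++ winv (wg k)

/-- words for `fe k i` -/
def eW (k : Fin 2) (i : Fin 4) : List Ltr := wg k ++ we k i ++ winv (wg k)

theorem g_cW (k : Fin 2) : g (cW k) = ev gen3 (fc k) := by rw [cW, g_append, g_append, g_winv, fc_eq]

theorem g_eW (k : Fin 2) (i : Fin 4) : g (eW k i) = ev gen3 (fe k i) := by
  rw [eW, g_append, g_append, g_winv, fe_eq]

theorem hdy : g whd * g wy1 = g wy1 * g whd := Front.comm_of (by decide +kernel)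
theorem hdA : g whd * g Front.wAd * (g whd)⁻¹ = g Front.wAd ^ 2 := Front.conj_of (by decide +kernel)
theorem yAd : g wy1 * g Front.wAd * (g wy1)⁻¹ = g Front.wAd ^ 3 := Front.conj_of (by decide +kernel)
theorem s2y : g ws2 * g wy1 = g wy1 * g ws2 := Front.comm_of (by decide +kernel)
theorem s2A : g ws2 * g Front.wAp = g Front.wAp * g ws2 := Front.comm_of (by decide +kernel)

theorem Ad13 : g Front.wAd ^ 13 = 1 := Front.oAd ▸ pow_orderOf_eq_one _

theorem Ap13 : g Front.wAp ^ 13 = 1 := Front.oAp ▸ pow_orderOf_eq_one _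

theorem sym_abs {H : Type} [Group H] {r : ℕ} {gen : Fin r → H} {A y : H} (hA : A ^ 13 = 1) (yA : y * A * y⁻¹ = A ^ 3)
    {l : List (List (Fin r × ℕ))}
    (h : ∀ w ∈ l, ev gen w * y = y * ev gen w ∧ ∃ n : ℕ, ev gen w * A * (ev gen w)⁻¹ = A ^ n) :
    ∀ s ∈ gp gen l ⊔ zpowers y, Commute s y ∧ ∃ n : ℕ, s * A * s⁻¹ = A ^ n := by
  have h1 : gp gen l ⊔ zpowers y ≤ centralizer ({y} : Set H) ⊓ normalizer ((zpowers A : Subgroup H) : Set H) := by
    refine sup_le (gp_le fun w hw => ?_) (zpowers_le.2 ?_)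
    · obtain ⟨h2, n, h3⟩ := h w hw
      exact ⟨mem_centralizer_singleton_iff.2 h2, Iso.norm_of_pow (by norm_num) hA h3⟩
    · exact ⟨mem_centralizer_singleton_iff.2 rfl, Iso.norm_of_pow (by norm_num) hA yA⟩
  intro s hs
  obtain ⟨h2, h3⟩ := h1 hs
  refine ⟨mem_centralizer_singleton_iff.1 h2, ?_⟩
  have h4 : s * A * s⁻¹ ∈ zpowers A := (mem_normalizer_iff.1 h3 A).1 (mem_zpowers A)
  obtain ⟨n, hn⟩ := (isOfFinOrder_iff_pow_eq_one.2 ⟨13, by norm_num, hA⟩).mem_powers_iff_mem_zpowers.2 h4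
  exact ⟨n, hn.symm⟩

/-- the symmetries in the diagonal case -/
theorem hSd : ∀ s ∈ gp gen3 fSd ⊔ zpowers (g wy1),
    Commute s (g wy1) ∧ ∃ n : ℕ, s * g Front.wAd * s⁻¹ = g Front.wAd ^ n := by
  refine sym_abs Ad13 yAd fun w hw => ?_
  obtain rfl : w = fhd := List.mem_singleton.1 hw
  rw [fhd_eq]
  exact ⟨hdy, 2, hdA⟩

/-- the symmetries in the pure case -/
theorem hSp : ∀ s ∈ gp gen3 fSp ⊔ zpowers (g wy1),
    Commute s (g wy1) ∧ ∃ n : ℕ, s * g Front.wAp * s⁻¹ = g Front.wAp ^ n := by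
  refine sym_abs Ap13 Front.yAp fun w hw => ?_
  rcases List.mem_cons.1 hw with rfl | hw
  · rw [fhp_eq]
    exact ⟨Front.hy, 2, Front.hAp⟩
  rcases List.mem_cons.1 hw with rfl | hw
  · rw [fs1_eq]
    exact ⟨Front.ysg.symm, 1, by rw [Front.sgAp, mul_inv_cancel_right, pow_one]⟩
  · obtain rfl : w = fs2 := List.mem_singleton.1 hw
    rw [fs2_eq]
    exact ⟨s2y, 1, by rw [s2A, mul_inv_cancel_right, pow_one]⟩

end Cfsg.Agent.BX.No33.Base
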