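import Cfsg.Agent.BX.No33.Blk
import Cfsg.Agent.BX.No33.Base
import Cfsg.Agent.BX.No33.Vec
import Cfsg.Agent.BX.No33.LD
import Cfsg.Agent.BX.No33.LP
set_option linter.all false

/-!
# The cheap frame for the blocks of tests (helper5)
-/

set_option autoImplicit false
set_option maxRecDepth 100000
set_option Elab.async false

namespace Cfsg.Agent.BX.No33.Bk

open Cfsg.Agent.BMx.Fast Cfsg.Agent.H819.U33 Cfsg.Agent.BX.Cov Cfsg.Agent.BX.Frame.Fr3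
open Cfsg.Agent.BabyM.Conc (Ltr)
open Cfsg.Agent.H863.U33 (wy1)

def wp000 : List Ltr :=
  [.Z2, .Z1, .X10, .p5, .hi, .p5, .hi, .p3, .hi, .p5, .hi, .p9]

def wp001 : List Ltr :=
  [.Z9, .Z8, .Z6, .X10, .p10, .hi, .p9, .hi, .p4, .hi, .p7, .hi, .p3]

def wp002 : List Ltr :=
  [.Z9, .Z8, .Z6, .Z4, .Z0, .X10, .p5, .hi, .p4, .hi, .p6, .hi, .p, .hi, .p, .hi, .p2, .hi]

def wp010 : List Ltr :=
  [.Z10, .Z9, .Z8, .Z4, .Z1, .X9, .X8, .X6, .X5, .X4, .X2, .X1, .y9, .y6, .y4, .y1, .p8, .hi, .p8, .hi, .p7, .hi,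
   .p10, .hi, .p9, .hi, .p8, .hi, .xii, .p10, .xii, .y2, .tau, .xii, .p, .xii, .y6, .hi, .p, .hi, .p7]

def wp011 : List Ltr :=
  [.Z6, .Z5, .Z4, .Z2, .Z1, .Z0, .X9, .X8, .X7, .X5, .X4, .X2, .X0, .y8, .y6, .y4, .y1, .hi, .p2, .hi, .p10, .hi,
   .p10, .hi, .p5, .hi, .p10, .hi, .xii, .p10, .xii, .y2, .tau, .xii, .p, .xii, .y6, .hi, .p, .hi, .p7]

def wp012 : List Ltr :=
  [.z, .Z10, .Z7, .Z6, .Z5, .Z3, .Z2, .Z1, .X9, .X7, .X6, .X5, .X2, .X1, .y9, .y7, .y6, .y4, .p, .hi, .p8, .hi, .p6,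
   .hi, .p7, .hi, .p6, .hi, .p9, .hi, .xii, .p10, .xii, .y2, .tau, .xii, .p, .xii, .y6, .hi, .p, .hi, .p7]

def wp020 : List Ltr :=
  [.z, .Z8, .Z7, .Z4, .Z3, .Z2, .Z1, .Z0, .X10, .X9, .X7, .X6, .X2, .X1, .y4, .y2, .p, .hi, .p6, .hi, .p3, .hi, .p6,
   .hi, .p7, .hi, .p3, .xii, .y2, .p10, .xii, .taui, .xii, .p, .xii, .y6, .hi, .p, .hi, .p7]

def wp021 : List Ltr :=
  [.z, .Z10, .Z9, .Z8, .Z5, .Z3, .Z2, .Z1, .Z0, .X10, .X9, .X8, .X6, .X4, .X2, .y8, .y5, .y4, .p7, .hi, .p10, .hi,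
   .p8, .hi, .p5, .hi, .p5, .hi, .xii, .y2, .p10, .xii, .taui, .xii, .p, .xii, .y6, .hi, .p, .hi, .p7]

def wp022 : List Ltr :=
  [.Z10, .Z9, .Z8, .Z6, .Z4, .Z2, .X10, .X9, .X7, .X2, .y9, .y7, .y4, .y1, .p9, .hi, .p9, .hi, .p3, .hi, .p, .hi, .p3,
   .hi, .p2, .xii, .y2, .p10, .xii, .taui, .xii, .p, .xii, .y6, .hi, .p, .hi, .p7]

def wp100 : List Ltr :=
  [.Z9, .Z8, .Z5, .Z3, .X9, .X6, .X1, .y10, .y3, .y1, .hi, .p5, .hi, .p6, .hi, .p5, .hi, .p7, .hi, .p5, .xii, .p10,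
   .xii, .y2, .tau, .xii, .p, .xii, .y6, .p5]

def wp101 : List Ltr :=
  [.Z8, .Z7, .Z4, .Z3, .Z2, .Z1, .X9, .X8, .X6, .X3, .X2, .X1, .y10, .y7, .y3, .y2, .y1, .hi, .p6, .hi, .p8, .hi, .p6,
   .hi, .p7, .hi, .p4, .hi, .xii, .p, .xii, .y6, .y10, .taui, .p5, .xii, .p, .xii, .hi, .p7, .y7, .tau, .xii, .p,
   .xii, .y6, .p5]

def wp102 : List Ltr :=
  [.Z10, .Z9, .Z8, .Z7, .Z6, .Z5, .Z4, .Z0, .X9, .X8, .X7, .X5, .X4, .X2, .X0, .y10, .y9, .y8, .y6, .y5, .y4, .y3,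
   .p10, .hi, .p8, .hi, .p7, .hi, .p7, .hi, .p, .hi, .p6, .hi, .xii, .p10, .xii, .y1, .p10, .tau, .X0, .p7, .xii, .p,
   .xii, .hi, .p7, .y7, .tau, .xii, .p, .xii, .y6, .p5]

def wp110 : List Ltr :=
  [.z, .Z9, .Z8, .Z5, .Z4, .Z2, .Z1, .X10, .X9, .X8, .X7, .X6, .X5, .X3, .X1, .X0, .y10, .y9, .y8, .y4, .y1, .hi, .p5,
   .hi, .p8, .hi, .p4, .hi, .p5, .hi, .p5, .hi, .p6, .xii, .p10, .xii, .y7, .p4, .hi, .tau, .xii, .y2, .hi, .p8, .xii,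
   .taui, .X0, .p8, .xii, .y2, .hi, .xii, .y5, .p6, .tau, .xii, .y2, .hi, .p8, .xii, .y2, .p5]

def wp111 : List Ltr :=
  [.z, .Z8, .Z2, .Z1, .X9, .X7, .X4, .X0, .y10, .y6, .y4, .y3, .y1, .p9, .hi, .p5, .hi, .p6, .hi, .p4, .hi, .p4, .hi,
   .p, .hi, .xii, .p, .xii, .y4, .p, .xii, .y7, .tau, .y1, .xii, .p10, .xii, .y2, .p10, .xii, .y8, .tau, .X0, .xii,
   .p6, .xii, .y4, .p10, .xii, .y2, .y7, .p10, .tau, .xii, .p, .xii, .y6, .hi, .p10]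

def wp112 : List Ltr :=
  [.Z10, .Z7, .Z4, .Z3, .Z1, .X10, .X9, .X8, .X7, .X6, .X5, .X4, .X1, .X0, .y7, .y5, .y4, .y3, .y2, .hi, .p6, .hi,
   .p3, .hi, .p7, .hi, .p4, .hi, .p8, .hi, .p3, .xii, .p, .xii, .p, .xii, .y6, .y10, .taui, .y1, .xii, .y2, .hi, .xii,
   .y7, .p10, .xii, .y10, .taui, .X0, .xii, .y2, .p6, .xii, .y2, .p10, .xii, .y3, .taui, .xii, .y2, .p10, .xii, .y2]

def wp120 : List Ltr :=
  [.Z9, .Z6, .Z5, .Z3, .X10, .X9, .X8, .X5, .X3, .X1, .y10, .y9, .y8, .y6, .y4, .y3, .p6, .hi, .p6, .hi, .p10, .hi,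
   .p2, .hi, .p, .hi, .p5, .hi, .xii, .p10, .xii, .y6, .p5, .xii, .tau, .xii, .p, .xii, .y1, .y3, .p2, .hi, .taui,
   .X0, .hi, .xii, .p8, .xii, .y10, .p6, .y6, .tau, .xii, .y2, .hi, .p8, .xii, .y2, .p5]

def wp121 : List Ltr :=
  [.Z10, .Z9, .Z5, .Z3, .Z2, .X10, .X9, .X6, .X5, .X4, .X1, .y9, .y8, .y6, .y3, .hi, .p8, .hi, .p4, .hi, .p6, .hi,
   .p2, .hi, .xii, .p10, .xii, .y7, .p8, .xii, .y9, .tau, .xii, .p, .xii, .y1, .y6, .hi, .xii, .y4, .y7, .tau, .X0,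
   .xii, .p6, .xii, .y4, .p10, .xii, .y7, .y8, .p10, .tau, .xii, .p, .xii, .y6, .hi, .p10]

def wp122 : List Ltr :=
  [.z, .Z10, .Z9, .Z8, .Z7, .Z5, .Z0, .X10, .X8, .X4, .X3, .X1, .X0, .y10, .y9, .y8, .y6, .y5, .y3, .y2, .y1, .p6,
   .hi, .p3, .hi, .p9, .hi, .p4, .hi, .p6, .hi, .p5, .hi, .xii, .p, .xii, .y1, .y10, .hi, .xii, .y5, .tau, .xii, .p,
   .xii, .hi, .y8, .xii, .y3, .taui, .xii, .p6, .xii, .y2, .y3, .p10, .xii, .y5, .taui, .xii, .y2, .p10, .xii, .y2]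

/-- the words of `c e₀ ^ i e₁ ^ j` -/
def wp (k : Fin 2) (i j : ℕ) : List Ltr :=
  ([wp000, wp001, wp002, wp010, wp011, wp012, wp020, wp021, wp022,
    wp100, wp101, wp102, wp110, wp111, wp112, wp120, wp121, wp122] : List (List Ltr)).getD (9 * k.val + 3 * i + j) []

/-- the frame -/
def F : Frm := ⟨Base.fc, Base.fe, Base.wg, Base.wc, Base.we, wp⟩

/-- the check of a word -/
noncomputable def wpB (k : Fin 2) (i j : ℕ) : Bool :=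
  eqF (wp k i j) (Base.wc k ++ pw (Base.we k 0) i ++ pw (Base.we k 1) j)

theorem wp_00 : (wpB 0 0 0 && wpB 0 0 1 && wpB 0 0 2) = true := by decide +kernel

theorem wp_01 : (wpB 0 1 0 && wpB 0 1 1 && wpB 0 1 2) = true := by decide +kernel

theorem wp_02 : (wpB 0 2 0 && wpB 0 2 1 && wpB 0 2 2) = true := by decide +kernel

theorem wp_10 : (wpB 1 0 0 && wpB 1 0 1 && wpB 1 0 2) = true := by decide +kernel

theorem wp_11 : (wpB 1 1 0 && wpB 1 1 1 && wpB 1 1 2) = true := by decide +kernel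

theorem wp_12 : (wpB 1 2 0 && wpB 1 2 1 && wpB 1 2 2) = true := by decide +kernel

theorem wp_ok (k : Fin 2) (i : ℕ) (hi : i < 3) (j : ℕ) (hj : j < 3) : wpB k i j = true := by
  have h : (wpB k i 0 && wpB k i 1 && wpB k i 2) = true := by
    have e : i = 0 ∨ i = 1 ∨ i = 2 := by omega
    have e' : k = 0 ∨ k = 1 := by omega
    rcases e' with rfl | rfl <;> rcases e with rfl | rfl | rfl
    exacts [wp_00, wp_01, wp_02, wp_10, wp_11, wp_12]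
  rw [Bool.and_eq_true, Bool.and_eq_true] at h
  have e : j = 0 ∨ j = 1 ∨ j = 2 := by omega
  rcases e with rfl | rfl | rfl
  exacts [h.1.1, h.1.2, h.2]

theorem ok : F.Ok where
  hc := Base.fc_eq
  he := Base.fe_eq
  hp k i hi j hj := by
    have h := eq_of_eqF (wp_ok k i hi j hj)
    rwa [g_append, g_append, g_pw, g_pw] at h

theorem hdD {b : Wd} (h : hdB F Front.wAd wBd b = true) : Hd F (g Front.wAd) b := hd_of wBd_eq h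

theorem hdP {b : Wd} (h : hdB F Front.wAp wBp b = true) : Hd F (g Front.wAp) b := hd_of wBp_eq h

end Cfsg.Agent.BX.No33.Bk
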