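import Cfsg.Agent.BX.Iso.PSL33
set_option linter.all false

/-!
# Triples that do not give a maximal `L₃(3)` (helper21)

`Dead A y c` : no triple `(A ^ m, y, c * y ^ n)` with the relations `R33` generates a maximal subgroup.
Four ways to get it: the relations fail, an element centralises the triple, an element of a wrong order,
a known overgroup.
-/

set_option autoImplicit false

namespace Cfsg.Agent.BX.No33

open Subgroup Cfsg.Agent.BX.Iso Cfsg.Agent.BX.Iso.P33 Cfsg.Agent.BX.L33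

/-! ### The orders of the elements of `SL₃(3)` -/

/-- multiplication by `x` on `α x² + β x + γ`, where `x³ = t x² - s x + 1` -/
def nx (t s : F3) (v : F3 × F3 × F3) : F3 × F3 × F3 := (v.1 * t + v.2.1, v.2.2 - v.1 * s, v.1)

/-- the coefficients of `x ^ k` -/
def px (t s : F3) : ℕ → F3 × F3 × F3
  | 0 => (0, 0, 1)
  | k + 1 => nx t s (px t s k)

theorem px_one : ∀ t s : F3, px t s 6 = (0, 0, 1) ∨ px t s 8 = (0, 0, 1) ∨ px t s 13 = (0, 0, 1) := by
  decide +kernel

theorem cube_eq (x : Matrix (Fin 3) (Fin 3) F3) (hx : x.det = 1) : ∃ t s : F3,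
    x * x * x = t • (x * x) - s • x + 1 := by
  refine ⟨x 0 0 + x 1 1 + x 2 2,
    x 0 0 * x 1 1 - x 0 1 * x 1 0 + (x 0 0 * x 2 2 - x 0 2 * x 2 0) + (x 1 1 * x 2 2 - x 1 2 * x 2 1), ?_⟩
  rw [Matrix.det_fin_three] at hx
  ext i j
  fin_cases i <;> fin_cases j <;>
    simp [Matrix.mul_apply, Fin.sum_univ_three, Matrix.one_apply] <;>
    first | linear_combination hx | ring

theorem pow_eq_px {x : Matrix (Fin 3) (Fin 3) F3} {t s : F3} (h : x * x * x = t • (x * x) - s • x + 1) (k : ℕ) :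
    x ^ k = (px t s k).1 • (x * x) + (px t s k).2.1 • x + (px t s k).2.2 • (1 : Matrix (Fin 3) (Fin 3) F3) := by
  induction k with
  | zero => simp [px]
  | succ k ih =>
    rw [pow_succ, ih, add_mul, add_mul, smul_mul_assoc, smul_mul_assoc, smul_mul_assoc, h, one_mul]
    simp only [px, nx]
    module

theorem spec_SL3 (x : SL3) : x ^ 6 = 1 ∨ x ^ 8 = 1 ∨ x ^ 13 = 1 := by
  obtain ⟨t, s, h⟩ := cube_eq x.1 x.2
  have key : ∀ k, px t s k = (0, 0, 1) → x ^ k = 1 := fun k hk => by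
    apply Subtype.ext
    rw [Matrix.SpecialLinearGroup.coe_pow, pow_eq_px h, hk]
    simp
  exact (px_one t s).imp (key 6) (Or.imp (key 8) (key 13))

theorem spec_PSL3 (x : PSL3) : x ^ 6 = 1 ∨ x ^ 8 = 1 ∨ x ^ 13 = 1 := by
  obtain ⟨x, rfl⟩ : ∃ z, π3 z = x := QuotientGroup.mk'_surjective _ x
  have key : ∀ k, x ^ k = 1 → π3 x ^ k = 1 := fun k hk => by rw [← map_pow, hk, map_one]
  exact (spec_SL3 x).imp (key 6) (Or.imp (key 8) (key 13))

variable {G : Type*} [Group G]

theorem spec33 {a b c x : G} (r : R33 a b c) (ha : a ≠ 1) (hx : x ∈ closure ({a, b, c} : Set G)) :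
    x ^ 6 = 1 ∨ x ^ 8 = 1 ∨ x ^ 13 = 1 := by
  obtain ⟨e⟩ := iso33 r ha
  have key : ∀ k, e ⟨x, hx⟩ ^ k = 1 → x ^ k = 1 := fun k hk => by
    rw [← map_pow, map_eq_one_iff e e.injective] at hk
    exact congrArg Subtype.val hk
  exact (spec_PSL3 (e ⟨x, hx⟩)).imp (key 6) (Or.imp (key 8) (key 13))

theorem mem_a (a b c : G) : a ∈ closure ({a, b, c} : Set G) := subset_closure (Or.inl rfl)
theorem mem_b (a b c : G) : b ∈ closure ({a, b, c} : Set G) := subset_closure (Or.inr (Or.inl rfl))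
theorem mem_c (a b c : G) : c ∈ closure ({a, b, c} : Set G) := subset_closure (Or.inr (Or.inr rfl))

theorem cl_le {a b c : G} {K : Subgroup G} (ha : a ∈ K) (hb : b ∈ K) (hc : c ∈ K) :
    closure ({a, b, c} : Set G) ≤ K := by
  rw [closure_le]
  rintro u (rfl | rfl | rfl)
  exacts [ha, hb, hc]

/-- the centre is trivial -/
theorem central33 {a b c s : G} (r : R33 a b c) (ha : a ≠ 1) (hs : s ∈ closure ({a, b, c} : Set G))
    (h : closure ({a, b, c} : Set G) ≤ centralizer {s}) : s = 1 := by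
  obtain ⟨e⟩ := iso33 r ha
  haveI := simpleP
  haveI : IsSimpleGroup (closure ({a, b, c} : Set G)) := e.isSimpleGroup
  rcases (Subgroup.normal_of_characteristic (center (closure ({a, b, c} : Set G)))).eq_bot_or_eq_top with h1 | h1
  · have h2 : (⟨s, hs⟩ : closure ({a, b, c} : Set G)) ∈ center _ :=
      mem_center_iff.2 fun u => Subtype.ext (mem_centralizer_singleton_iff.1 (h u.2))
    rw [h1, mem_bot] at h2
    exact congrArg Subtype.val h2
  · have h2 : (⟨a, mem_a a b c⟩ : closure ({a, b, c} : Set G)) ∈ center _ := h1 ▸ mem_top _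
    have h3 : b * a = a * b := congrArg Subtype.val (mem_center_iff.1 h2 ⟨b, mem_b a b c⟩)
    have h4 := r.ba
    rw [h3, mul_inv_cancel_right] at h4
    have h5 : a ^ 2 = 1 := by
      rw [pow_succ] at h4
      exact (mul_eq_right.1 h4.symm)
    have h6 := r.ap
    rw [show 13 = 2 * 6 + 1 from rfl, pow_succ, pow_mul, h5, one_pow, one_mul] at h6
    exact absurd h6 ha

/-! ### Dead triples -/

/-- no triple `(A ^ m, y, c * y ^ n)` with the relations generates a maximal subgroup -/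
def Dead (A y c : G) : Prop :=
  ∀ m n : ℕ, A ^ m ≠ 1 → R33 (A ^ m) y (c * y ^ n) → ¬ IsCoatom (closure ({A ^ m, y, c * y ^ n} : Set G))

theorem Dead.pow {A y c : G} (h : Dead A y c) (k : ℕ) : Dead (A ^ k) y c := fun m n => by
  rw [← pow_mul]
  exact h _ n

theorem Dead.mul_pow {A y c : G} (h : Dead A y c) (k : ℕ) : Dead A y (c * y ^ k) := fun m n => by
  rw [mul_assoc, ← pow_add]
  exact h m _

theorem Dead.of_equiv {H : Type*} [Group H] (e : G ≃* H) {A y c : G} (h : Dead (e A) (e y) (e c)) : Dead A y c := by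
  intro m n h1 h2 h3
  refine h m n (by rwa [← map_pow, Ne, map_eq_one_iff e e.injective]) ?_ ?_
  · rw [← map_pow, ← map_pow, ← map_mul]
    exact h2.map e.toMonoidHom
  · have h4 := (OrderIso.isCoatom_iff e.mapSubgroup _).2 h3
    have h5 : e.mapSubgroup (closure ({A ^ m, y, c * y ^ n} : Set G)) =
        closure ({e A ^ m, e y, e c * e y ^ n} : Set H) := by
      show Subgroup.map e.toMonoidHom _ = _
      rw [MonoidHom.map_closure, Set.image_insert_eq, Set.image_pair]
      simp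
    rwa [h5] at h4

theorem Dead.conj (t : G) {A y c : G} (h : Dead (t * A * t⁻¹) (t * y * t⁻¹) (t * c * t⁻¹)) : Dead A y c :=
  Dead.of_equiv (MulAut.conj t) h

theorem Dead.conj' (t : G) {A y c : G} (h : Dead (t⁻¹ * A * t) (t⁻¹ * y * t) (t⁻¹ * c * t)) : Dead A y c :=
  Dead.conj t⁻¹ (by rwa [inv_inv])

/-- the relations fail -/
theorem dead_of_not {A y c : G} (h : ∀ m n : ℕ, A ^ m ≠ 1 → ¬ R33 (A ^ m) y (c * y ^ n)) : Dead A y c :=
  fun m n h1 h2 => absurd h2 (h m n h1)

theorem cl_var_le (A y c : G) (m n : ℕ) :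
    closure ({A ^ m, y, c * y ^ n} : Set G) ≤ closure ({A, y, c} : Set G) :=
  cl_le (pow_mem (mem_a A y c) m) (mem_b A y c) (mul_mem (mem_c A y c) (pow_mem (mem_b A y c) n))

/-- an element `s`, not central in `G`, centralises the triple -/
theorem dead_of_comm {A y c s t : G} (hA : s * A = A * s) (hy : s * y = y * s) (hc : s * c = c * s)
    (ht : s * t ≠ t * s) : Dead A y c := by
  intro m n h1 h2 h3
  have h4 : closure ({A ^ m, y, c * y ^ n} : Set G) ≤ centralizer {s} :=
    (cl_var_le A y c m n).trans (cl_le (mem_centralizer_singleton_iff.2 hA.symm)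
      (mem_centralizer_singleton_iff.2 hy.symm) (mem_centralizer_singleton_iff.2 hc.symm))
  rcases h4.eq_or_lt with h5 | h5
  · have h6 : s = 1 := central33 h2 h1 (h5 ▸ mem_centralizer_singleton_iff.2 rfl) h4
    exact ht (by rw [h6, one_mul, mul_one])
  · have h6 : t ∈ centralizer ({s} : Set G) := h3.2 _ h5 ▸ mem_top t
    exact ht (mem_centralizer_singleton_iff.1 h6).symm

/-- an element of an order that does not occur in `L₃(3)` -/
theorem dead_of_ord {A y c x : G} (hA : A ^ 13 = 1) (hx : x ∈ closure ({A, y, c} : Set G)) {k : ℕ}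
    (ho : orderOf x = k) (hk : ¬ k ∣ 6 ∧ ¬ k ∣ 8 ∧ ¬ k ∣ 13) : Dead A y c := by
  refine dead_of_not fun m n h1 h2 => ?_
  have h3 : A ∈ zpowers (A ^ m) := by
    haveI : Fact (Nat.Prime 13) := ⟨by norm_num⟩
    have h4 : A ≠ 1 := fun h => h1 (by rw [h, one_pow])
    have h5 : orderOf A = 13 := orderOf_eq_prime hA h4
    refine mem_zpowers_pow_iff.2 ?_
    rw [h5, Nat.gcd_comm]
    refine (Nat.coprime_or_dvd_of_prime (by norm_num) m).resolve_right fun h6 => h1 ?_
    exact orderOf_dvd_iff_pow_eq_one.1 (h5 ▸ h6)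
  have h4 : x ∈ closure ({A ^ m, y, c * y ^ n} : Set G) := by
    refine cl_le ((zpowers_le.2 (mem_a (A ^ m) y (c * y ^ n))) h3) (mem_b (A ^ m) y (c * y ^ n)) ?_ hx
    have h5 := mul_mem (mem_c (A ^ m) y (c * y ^ n)) (inv_mem (pow_mem (mem_b (A ^ m) y (c * y ^ n)) n))
    rwa [mul_inv_cancel_right] at h5
  rw [← ho, orderOf_dvd_iff_pow_eq_one, orderOf_dvd_iff_pow_eq_one, orderOf_dvd_iff_pow_eq_one] at hk
  rcases spec33 h2 h1 h4 with h5 | h5 | h5
  exacts [hk.1 h5, hk.2.1 h5, hk.2.2 h5]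

/-- the triple lies in a subgroup whose small subgroups are not maximal -/
theorem dead_of_le {A y c : G} {K : Subgroup G} (hK : ∀ M ≤ K, Nat.card M ≤ 5616 → ¬ IsCoatom M) (hA : A ∈ K)
    (hy : y ∈ K) (hc : c ∈ K) : Dead A y c := fun m n h1 h2 =>
  hK _ ((cl_var_le A y c m n).trans (cl_le hA hy hc)) (card33 h2 h1).le

end Cfsg.Agent.BX.No33
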