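import Cfsg.Agent.BX.Iso.PSL33
import Cfsg.Agent.BX.L33.End
set_option linter.all false

/-!
# No maximal `L₃(3)` : the reduction to two Frobenius groups `13 : 3` (helper20)

`S13 A y σ τ h` : explicit elements of the normaliser of `⟨A⟩`.  Every pair `(a, b)` with `a` of order 13, `b ^ 3 = 1`,
`b a b⁻¹ = a ^ 3` is conjugate to `(A, y)` or to `(A, y σ)`.
-/

set_option autoImplicit false

namespace Cfsg.Agent.BX.No33.FrontA

open Subgroup Cfsg.Agent.BX.Max Cfsg.Agent.BX.Iso Cfsg.Agent.BX.Iso.P33 Cfsg.Agent.BX.L33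
open scoped Pointwise

variable {G : Type} [Group G]

/-- explicit elements of the normaliser of `⟨A⟩` -/
structure S13 (A y σ τ h : G) : Prop where
  oA : orderOf A = 13
  oy : orderOf y = 3
  oσ : orderOf σ = 3
  yA : y * A * y⁻¹ = A ^ 3
  σA : σ * A = A * σ
  yσ : y * σ = σ * y
  τA : τ * A = A * τ
  τy : τ * y = y * τ
  τσ : τ * σ * τ⁻¹ = σ ^ 2
  hA : h * A * h⁻¹ = A ^ 2
  hy : h * y = y * h
  hσ : h * σ = σ * h

theorem conj_into [Finite G] {K P : Subgroup G} {p k : ℕ} (hp : p.Prime) (hP : P ≤ K) (cP : Nat.card P = p ^ k)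
    (hk : ¬ p ^ (k + 1) ∣ Nat.card K) {b : G} (hb : b ∈ K) (h1 : b ^ p = 1) : ∃ n ∈ K, n * b * n⁻¹ ∈ P := by
  haveI : Fact p.Prime := ⟨hp⟩
  obtain ⟨S, hS⟩ := exists_syl hP cP hk
  have h2 : IsPGroup p (zpowers (⟨b, hb⟩ : K)) := by
    have h3 : (⟨b, hb⟩ : K) ^ p = 1 := Subtype.ext h1
    rcases (Nat.dvd_prime hp).1 (orderOf_dvd_of_pow_eq_one h3) with h4 | h4
    · exact IsPGroup.of_card (n := 0) (by rw [Nat.card_zpowers, h4, pow_zero])
    · exact IsPGroup.of_card (n := 1) (by rw [Nat.card_zpowers, h4, pow_one])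
  obtain ⟨T, hT⟩ := h2.exists_le_sylow
  obtain ⟨n, hn⟩ := MulAction.exists_smul_eq K T S
  have h5 : (⟨b, hb⟩ : K) ∈ (T : Subgroup K) ↔ n * ⟨b, hb⟩ * n⁻¹ ∈ (S : Subgroup K) := by
    rw [← hn, Sylow.coe_subgroup_smul]
    exact (smul_mem_pointwise_smul_iff (a := MulAut.conj n)).symm
  have h6 := h5.1 (hT (mem_zpowers _))
  rw [hS] at h6
  exact ⟨n, n.2, h6⟩

theorem card_cent {A : G} (oA : orderOf A = 13) (Q : Quo A (Equiv.Perm (Fin 4))) :
    Nat.card (centralizer ({A} : Set G)) = 312 := by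
  obtain ⟨φ, hs, hk⟩ := Q
  have hle : zpowers A ≤ centralizer ({A} : Set G) := zpowers_le.2 (mem_centralizer_singleton_iff.2 rfl)
  have h1 : φ.ker = (zpowers A).subgroupOf (centralizer ({A} : Set G)) := by
    ext g; exact hk g
  have h2 := φ.ker.card_mul_index
  rw [index_ker, MonoidHom.range_eq_top.2 hs, card_top, h1, card_subgroupOf hle, Nat.card_zpowers, oA,
    Nat.card_perm, Nat.card_fin] at h2
  exact h2.symm

/-- the hypothesis on the centralisers of the elements of order 13 follows from `Loc` -/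
theorem nine_of_loc (L : Loc G) (x : G) (hx : orderOf x = 13) : ¬ 9 ∣ Nat.card (centralizer ({x} : Set G)) := by
  rw [card_cent hx (L.q13 x hx)]; decide

theorem card_norm [Finite G] {A : G} (oA : orderOf A = 13) (h9 : ¬ 9 ∣ Nat.card (centralizer ({A} : Set G))) :
    ¬ 3 ^ (2 + 1) ∣ Nat.card (normalizer ((zpowers A : Subgroup G) : Set G)) := by
  have h0 : centralizer ((zpowers A : Subgroup G) : Set G) = centralizer ({A} : Set G) := by
    rw [zpowers_eq_closure, centralizer_closure]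
  have h2 := (zpowers A).normalizerMonoidHom.ker.card_mul_index
  rw [index_ker, normalizerMonoidHom_ker, card_subgroupOf (centralizer_le_normalizer _), h0] at h2
  have h3 := card_subgroup_dvd_card (zpowers A).normalizerMonoidHom.range
  rw [IsCyclic.card_mulAut, Nat.card_zpowers, oA, Nat.totient_prime (by norm_num)] at h3
  rw [← h2]
  intro h4
  have h5 := h4.trans (Nat.mul_dvd_mul_left _ h3)
  omega

theorem back {A h : G} (oA : orderOf A = 13) (hA : h * A * h⁻¹ = A ^ 2) {e : ℕ} (he : e < 13) (h1 : A ^ e ≠ 1) :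
    ∃ i : ℕ, h ^ i * A ^ e * (h ^ i)⁻¹ = A := by
  have h2 : ∀ e < 13, e ≠ 0 → ∃ i < 12, 2 ^ i * e % 13 = 1 := by decide
  obtain ⟨i, -, hi⟩ := h2 e he (by rintro rfl; exact h1 (pow_zero A))
  refine ⟨i, ?_⟩
  rw [conj_pow_pow hA, mul_inv_cancel_right, ← pow_mod_orderOf, oA, hi, pow_one]

/-- **the two classes of Frobenius groups `13 : 3`** -/
theorem two (hc : Nat.card G = nB)
    (h9 : ∀ x : G, orderOf x = 13 → ¬ 9 ∣ Nat.card (centralizer ({x} : Set G))) {A y σ τ h : G} (S : S13 A y σ τ h) {a b : G} (oa : orderOf a = 13) (b3 : b ^ 3 = 1)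
    (ba : b * a * b⁻¹ = a ^ 3) : ∃ x : G, x * a * x⁻¹ = A ∧ (x * b * x⁻¹ = y ∨ x * b * x⁻¹ = y * σ) := by
  haveI : Finite G := Nat.finite_of_card_ne_zero (by rw [hc]; decide)
  have A13 : A ^ 13 = 1 := S.oA ▸ pow_orderOf_eq_one A
  have y3 : y ^ 3 = 1 := S.oy ▸ pow_orderOf_eq_one y
  have σ3 : σ ^ 3 = 1 := S.oσ ▸ pow_orderOf_eq_one σ
  have inj : ∀ i j : ℕ, A ^ i = A ^ j → i % 13 = j % 13 := fun i j e => by
    have := pow_inj_mod.1 e
    rwa [S.oA] at this
  -- the reduction to `a = A`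
  have red : ∀ {a : G}, a ∈ zpowers A → a ≠ 1 → ∃ i : ℕ, h ^ i * a * (h ^ i)⁻¹ = A := by
    intro a ha h1
    obtain ⟨e, he⟩ := (isOfFinOrder_of_finite A).mem_powers_iff_mem_zpowers.2 ha
    have he' : a = A ^ (e % 13) := by rw [← pow_eq_pow_mod e A13]; exact he.symm
    rw [he'] at h1 ⊢
    exact back S.oA S.hA (Nat.mod_lt _ (by norm_num)) h1
  have main : ∀ b : G, b ^ 3 = 1 → b * A * b⁻¹ = A ^ 3 →
      ∃ x : G, x * A * x⁻¹ = A ∧ (x * b * x⁻¹ = y ∨ x * b * x⁻¹ = y * σ) := by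
    intro b b3 bA
    have hN := card_norm S.oA (h9 A S.oA)
    have yσ' : y * σ * y⁻¹ = σ ^ 1 := by rw [S.yσ, mul_inv_cancel_right, pow_one]
    have σA' : σ * A * σ⁻¹ = A ^ 1 := by rw [S.σA, mul_inv_cancel_right, pow_one]
    have cP : Nat.card (closure ({σ, y} : Set G)) = 3 * 3 := by
      refine card_meta (by norm_num) (by norm_num) S.oσ S.oy yσ' fun j h0 hj hz => ?_
      obtain ⟨k, hk⟩ := mem_zpowers_iff.1 hz
      have h1 : y ^ j * A = A * y ^ j := by
        rw [← hk]; exact ((show Commute σ A from S.σA).zpow_left k).eq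
      have h2 := conj_pow_pow S.yA 1 j
      rw [pow_one, h1] at h2
      have h3 := inj 1 _ ((pow_one A).trans (mul_right_cancel h2))
      interval_cases j <;> exact absurd h3 (by decide)
    obtain ⟨n, hn, hP⟩ := conj_into (K := normalizer ((zpowers A : Subgroup G) : Set G)) (p := 3) (k := 2) (by norm_num)
      (cl2_le (norm_of_pow (by norm_num) A13 σA') (norm_of_pow (by norm_num) A13 S.yA)) cP
      hN (norm_of_pow (by norm_num) A13 bA) b3
    obtain ⟨i, hi, j, hj, e⟩ := mem_meta (by norm_num) (by norm_num) σ3 y3 yσ' hP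
    have nA : n * A * n⁻¹ ∈ zpowers A := (mem_normalizer_iff.1 hn A).1 (mem_zpowers A)
    have A1 : A ≠ 1 := fun h1 => by have := S.oA; rw [h1, orderOf_one] at this; exact absurd this (by norm_num)
    obtain ⟨t, ht⟩ := red nA (fun h1 => A1 (conj_eq_one_iff.1 h1))
    have c1 : Commute (h ^ t) (σ ^ i * y ^ j) :=
      ((show Commute h σ from S.hσ).pow_pow t i).mul_right ((show Commute h y from S.hy).pow_pow t j)
    have xA : h ^ t * n * A * (h ^ t * n)⁻¹ = A :=
      (show _ = h ^ t * (n * A * n⁻¹) * (h ^ t)⁻¹ by group).trans ht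
    have xb : h ^ t * n * b * (h ^ t * n)⁻¹ = σ ^ i * y ^ j := by
      have : h ^ t * n * b * (h ^ t * n)⁻¹ = h ^ t * (n * b * n⁻¹) * (h ^ t)⁻¹ := by group
      rw [this, e, c1.eq, mul_inv_cancel_right]
    generalize h ^ t * n = x at xA xb
    have h4 : σ ^ i * y ^ j * A * (σ ^ i * y ^ j)⁻¹ = A ^ 3 := by
      have : x * b * x⁻¹ * (x * A * x⁻¹) * (x * b * x⁻¹)⁻¹ = x * (b * A * b⁻¹) * x⁻¹ := by group
      rw [xb, xA, bA, ← conj_pow, xA] at this
      exact this
    have h5 : σ ^ i * y ^ j * A = A ^ (1 ^ i * (3 ^ j * 1)) * (σ ^ i * y ^ j) := by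
      have h6 := conj_pow_pow S.yA 1 j
      rw [pow_one] at h6
      rw [mul_assoc, h6, ← mul_assoc, conj_pow_pow σA', mul_assoc]
    rw [h5, mul_inv_cancel_right, one_pow, one_mul, mul_one] at h4
    have h7 := inj _ _ h4
    have hj1 : j = 1 := by interval_cases j <;> first | rfl | exact absurd h7 (by decide)
    subst hj1
    rw [pow_one] at xb
    interval_cases i
    · exact ⟨x, xA, Or.inl (by rw [xb, pow_zero, one_mul])⟩
    · exact ⟨x, xA, Or.inr (by rw [xb, pow_one, S.yσ])⟩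
    · refine ⟨τ * x, ?_, Or.inr ?_⟩
      · have : τ * x * A * (τ * x)⁻¹ = τ * (x * A * x⁻¹) * τ⁻¹ := by group
        rw [this, xA, S.τA, mul_inv_cancel_right]
      · have : τ * x * b * (τ * x)⁻¹ = τ * (x * b * x⁻¹) * τ⁻¹ := by group
        have h8 : τ * (σ ^ 2 * y) * τ⁻¹ = (τ * σ * τ⁻¹) ^ 2 * (τ * y * τ⁻¹) := by rw [conj_pow]; group
        rw [this, xb, h8, S.τσ, S.τy, mul_inv_cancel_right, ← pow_mul, show 2 * 2 = 3 + 1 from rfl, pow_succ, σ3, one_mul,
          S.yσ]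
  have a13 : a ^ 13 = 1 := oa ▸ pow_orderOf_eq_one a
  obtain ⟨n, -, hn⟩ := conj_into (K := ⊤) (P := zpowers A) (p := 13) (k := 1) (by norm_num) le_top
    (by rw [Nat.card_zpowers, S.oA, pow_one]) (by rw [card_top, hc]; decide) (mem_top a) a13
  have a1 : a ≠ 1 := fun h1 => by rw [h1, orderOf_one] at oa; exact absurd oa (by norm_num)
  obtain ⟨t, ht⟩ := red hn (fun h1 => a1 (conj_eq_one_iff.1 h1))
  have xa : h ^ t * n * a * (h ^ t * n)⁻¹ = A := by rw [← ht]; group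
  generalize h ^ t * n = x at xa
  obtain ⟨z, z1, z2⟩ := main (x * b * x⁻¹) (by rw [conj_pow, b3, mul_one, mul_inv_cancel]) (by
    have : x * b * x⁻¹ * (x * a * x⁻¹) * (x * b * x⁻¹)⁻¹ = x * (b * a * b⁻¹) * x⁻¹ := by group
    rw [xa, ba, ← conj_pow, xa] at this
    exact this)
  refine ⟨z * x, ?_, ?_⟩
  · have : z * x * a * (z * x)⁻¹ = z * (x * a * x⁻¹) * z⁻¹ := by group
    rw [this, xa, z1]
  · have : z * x * b * (z * x)⁻¹ = z * (x * b * x⁻¹) * z⁻¹ := by group
    rw [this]; exact z2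

/-- generators of a subgroup isomorphic to `L₃(3)` -/
theorem gens {M : Subgroup G} (e : M ≃* T33) :
    ∃ a b c : G, R33 a b c ∧ orderOf a = 13 ∧ closure ({a, b, c} : Set G) = M := by
  let φ : PSL3 →* G := M.subtype.comp e.symm.toMonoidHom
  have hφ : Function.Injective φ := M.subtype_injective.comp e.symm.injective
  have r := relP.map φ
  refine ⟨_, _, _, r, ?_, ?_⟩
  · haveI : Fact (Nat.Prime 13) := ⟨by norm_num⟩
    refine orderOf_eq_prime r.ap fun h1 => ?_
    have h2 : π3 aS = 1 := hφ (h1.trans (map_one φ).symm)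
    have h3 : aS ∈ Subgroup.center SL3 := (QuotientGroup.eq_one_iff _).1 h2
    rw [center_SL3] at h3
    exact aS_ne (mem_bot.1 h3)
  · rw [← map_cl3, genP, ← MonoidHom.range_eq_map, MonoidHom.range_comp, MonoidHom.range_eq_top.2 e.symm.surjective,
      ← MonoidHom.range_eq_map, range_subtype]

theorem coatom_conj {M : Subgroup G} (hM : IsCoatom M) (x : G) : IsCoatom (M.map (MulAut.conj x).toMonoidHom) :=
  ((MulAut.conj x).mapSubgroup.isCoatom_iff M).2 hM

/-- **the front** : a maximal `L₃(3)` is conjugate to `⟨A, y, c⟩` or to `⟨v A v⁻¹, y, c⟩`, where `v (y σ) v⁻¹ = y` -/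
theorem front_abs (hc : Nat.card G = nB)
    (h9 : ∀ x : G, orderOf x = 13 → ¬ 9 ∣ Nat.card (centralizer ({x} : Set G))) {A y σ τ h v A' : G} (S : S13 A y σ τ h) (hv : v * (y * σ) * v⁻¹ = y) (hA' : v * A * v⁻¹ = A')
    {M : Subgroup G} (hM : IsCoatom M) (e : Nonempty (M ≃* T33)) :
    (∃ c : G, R33 A y c ∧ IsCoatom (closure ({A, y, c} : Set G))) ∨
    (∃ c : G, R33 A' y c ∧ IsCoatom (closure ({A', y, c} : Set G))) := by
  obtain ⟨a, b, c, r, oa, rfl⟩ := gens e.some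
  have key : ∀ x : G, R33 (x * a * x⁻¹) (x * b * x⁻¹) (x * c * x⁻¹) ∧
      IsCoatom (closure ({x * a * x⁻¹, x * b * x⁻¹, x * c * x⁻¹} : Set G)) := fun x => by
    refine ⟨r.map (MulAut.conj x).toMonoidHom, ?_⟩
    have h1 := coatom_conj hM x
    rw [map_cl3] at h1
    exact h1
  obtain ⟨x, xa, xb | xb⟩ := two hc h9 S oa r.bp r.ba
  · have h1 := key x
    rw [xa, xb] at h1
    exact Or.inl ⟨_, h1⟩
  · have h1 := key (v * x)
    have h2 : v * x * a * (v * x)⁻¹ = A' := by rw [← hA', ← xa]; group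
    have h3 : v * x * b * (v * x)⁻¹ = y := by rw [← hv, ← xb]; group
    rw [h2, h3] at h1
    exact Or.inr ⟨_, h1⟩

end Cfsg.Agent.BX.No33.FrontA
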