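import Cfsg.Agent.BX.Iso.PSL33
set_option linter.all false

/-!
# An identity in `L₃(3)` (helper14)

In the presentation `R33 a b c` the involution `c` commutes with its conjugate under `a ^ 4`.
-/

set_option autoImplicit false

namespace Cfsg.Agent.BX.No33

open Cfsg.Agent.BX.Iso Cfsg.Agent.BX.Iso.P33 Cfsg.Agent.BX.L33

theorem comm4S : Commute cS ((aS ^ 4)⁻¹ * cS * aS ^ 4) := by
  have h : (aS ^ 4)⁻¹ = aS ^ 9 := by
    rw [inv_eq_iff_mul_eq_one, ← pow_add]; exact aS_pow
  rw [h]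
  apply Subtype.ext
  change cm * (am ^ 9 * cm * am ^ 4) = am ^ 9 * cm * am ^ 4 * cm
  decide +kernel

theorem comm4 {G : Type*} [Group G] {a b c : G} (r : R33 a b c) : Commute c ((a ^ 4)⁻¹ * c * a ^ 4) := by
  by_cases ha : a = 1
  · subst ha
    simpa using Commute.refl c
  · obtain ⟨φ, -, rfl, rfl, rfl⟩ := hom33 r ha
    simpa using (comm4S.map π3).map φ

end Cfsg.Agent.BX.No33
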