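import Cfsg.Agent.BX.No33.Surv
import Cfsg.Agent.BX.No33.Ident
import Cfsg.Agent.BX.No33.CovGlue
set_option linter.all false
open scoped Cfsg.Agent.FastGrp

/-!
# From the cover, the tests and the survivors to dead triples (helper21)
-/

set_option autoImplicit false

namespace Cfsg.Agent.BX.No33

open Subgroup Cfsg.Agent.H819.U33 Cfsg.Agent.BMx.Fast Cfsg.Agent.BX.Cov Cfsg.Agent.BX.Frame.Fr3
open Cfsg.Agent.BabyM.Conc (Ltr)
open Cfsg.Agent.BabyM.TransInv (winv)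
open Cfsg.Agent.H863.U33 (wy1)

section

variable (fc : Fin 2 → FW) (fe : Fin 2 → Fin 4 → FW)

/-- the candidates -/
noncomputable def Elt (k : Fin 2) (i j l m n : ℕ) : G :=
  ev gen3 (fc k) * ev gen3 (fe k 0) ^ i * ev gen3 (fe k 1) ^ j * ev gen3 (fe k 2) ^ l * ev gen3 (fe k 3) ^ m *
    g wy1 ^ n

/-- the tests of a block, with a list of exceptions -/
def GoodG (A : G) (p : Fin 2 × FW) (ex : List ℕ) : Prop :=
  ∀ i j l m : ℕ, i < 3 → j < 3 → l < 3 → m < 3 → 27 * i + 9 * j + 3 * l + m ∉ ex → ∀ (n : ℕ) (c : G),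
    c = (ev gen3 p.2)⁻¹ * Elt fc fe p.1 i j l m n * ev gen3 p.2 → Commute (ev gen3 p.2) (g wy1) → c ^ 2 = 1 →
    (c * g wy1) ^ 2 = 1 → ∀ t : ℕ, ¬ 13 ∣ t → ¬ Commute c ((A ^ t)⁻¹ * c * A ^ t)

/-- an exception is dead -/
def SvG (A : G) (p : Fin 2 × FW) (e : ℕ) : Prop :=
  Dead A (g wy1) ((ev gen3 p.2)⁻¹ * Elt fc fe p.1 (e / 27) (e / 9 % 3) (e / 3 % 3) (e % 3) 0 * ev gen3 p.2)

variable {fc fe}

theorem Elt_conj {w : G} (hw : Commute w (g wy1)) (k : Fin 2) (i j l m n n' : ℕ) :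
    w⁻¹ * Elt fc fe k i j l m n * w * g wy1 ^ n' = w⁻¹ * Elt fc fe k i j l m (n + n') * w := by
  unfold Elt
  rw [mul_assoc _ w, (hw.pow_right n').eq, pow_add]
  simp only [mul_assoc]

/-- **all triples are dead** -/
theorem dead_all (h3 : H3) {A : G} (hA : A ^ 13 = 1) {fS : List FW}
    (hS : ∀ s ∈ gp gen3 fS ⊔ zpowers (g wy1), Commute s (g wy1) ∧ ∃ n : ℕ, s * A * s⁻¹ = A ^ n)
    {L : List ((Fin 2 × FW) × List ℕ)} (hM : CoverM fS (L.map Prod.fst) fc fe)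
    (hG : ∀ q ∈ L, GoodG fc fe A q.1 q.2) (hV : ∀ q ∈ L, ∀ e ∈ q.2, SvG fc fe A q.1 e) {c : G}
    (c2 : c ^ 2 = 1) (cy : (c * g wy1) ^ 2 = 1) : Dead A (g wy1) c := by
  obtain ⟨s, hs, p, hp, i, j, l, m, n, hi, hj, hl, hm, hc, hw⟩ := cover_of h3 hM c2 cy
  obtain ⟨q, hq, rfl⟩ := List.mem_map.1 hp
  obtain ⟨hy, r, hr⟩ := hS s hs
  have h1 : s * c * s⁻¹ = (ev gen3 q.1.2)⁻¹ * Elt fc fe q.1.1 i j l m n * ev gen3 q.1.2 := by
    rw [hc]
    unfold Elt
    simp only [mul_inv_rev, mul_assoc, mul_inv_cancel_left, mul_inv_cancel, mul_one]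
  refine Dead.conj s ?_
  rw [hr, hy.eq, mul_inv_cancel_right, h1]
  refine Dead.pow ?_ r
  by_cases he : 27 * i + 9 * j + 3 * l + m ∈ q.2
  · have h2 := (hV q hq _ he).mul_pow n
    rw [show (27 * i + 9 * j + 3 * l + m) / 27 = i by omega, show (27 * i + 9 * j + 3 * l + m) / 9 % 3 = j by omega,
      show (27 * i + 9 * j + 3 * l + m) / 3 % 3 = l by omega, show (27 * i + 9 * j + 3 * l + m) % 3 = m by omega,
      Elt_conj hw, zero_add] at h2
    exact h2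
  · refine dead_of_not fun a b ha hR => ?_
    refine hG q hq i j l m hi hj hl hm he (n + b) _ (Elt_conj hw _ _ _ _ _ _ _) hw hR.cp hR.cb (a * 4) ?_ ?_
    · intro h4
      obtain ⟨u, rfl⟩ : 13 ∣ a := (Nat.Coprime.dvd_mul_right (by norm_num)).1 h4
      exact ha (by rw [pow_mul, hA, one_pow])
    · rw [pow_mul]
      exact comm4 hR

end

/-- the group of symmetries centralises `y` and normalises `⟨A⟩` -/
theorem sym_of {A : G} (hy : g wy1 * A * (g wy1)⁻¹ = A ^ 3) {fS : List FW}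
    (h : ∀ w ∈ fS, Commute (ev gen3 w) (g wy1) ∧ ∃ n : ℕ, ev gen3 w * A * (ev gen3 w)⁻¹ = A ^ n) :
    ∀ s ∈ gp gen3 fS ⊔ zpowers (g wy1), Commute s (g wy1) ∧ ∃ n : ℕ, s * A * s⁻¹ = A ^ n := by
  have := finG
  have key : ∀ (u : G) (n : ℕ), u * A * u⁻¹ = A ^ n → u ∈ normalizer ((zpowers A : Subgroup G) : Set G) :=
    fun u n hu => mem_normalizer_fintype fun x hx => by
      obtain ⟨z, rfl⟩ := mem_zpowers_iff.1 hx
      rw [← conj_zpow, hu]
      exact zpow_mem (pow_mem (mem_zpowers A) n) z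
  have hle : gp gen3 fS ⊔ zpowers (g wy1) ≤
      centralizer {g wy1} ⊓ normalizer ((zpowers A : Subgroup G) : Set G) := by
    refine sup_le (gp_le fun w hw => ?_) (zpowers_le.2 ⟨mem_centralizer_singleton_iff.2 rfl, key _ _ hy⟩)
    obtain ⟨h1, n, h2⟩ := h w hw
    exact ⟨mem_centralizer_singleton_iff.2 h1.eq, key _ _ h2⟩
  intro s hs
  obtain ⟨h1, h2⟩ := hle hs
  refine ⟨mem_centralizer_singleton_iff.1 h1, ?_⟩
  obtain ⟨n, hn⟩ := mem_powers_iff_mem_zpowers.2 ((mem_normalizer_iff.1 h2 A).1 (mem_zpowers A))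
  exact ⟨n, hn.symm⟩

/-- a generator of the group of symmetries, with a short word `u` -/
theorem sym_gen {wA u : List Ltr} {w : FW} {n : ℕ} (h1 : eqF (fwd w) u = true) (h2 : cmF u wy1 = true)
    (h3 : eqF (u ++ wA) (pw wA n ++ u) = true) :
    Commute (ev gen3 w) (g wy1) ∧ ∃ n : ℕ, ev gen3 w * g wA * (ev gen3 w)⁻¹ = g wA ^ n := by
  have h4 := eq_of_eqF h3
  rw [g_append, g_append, g_pw] at h4
  rw [← g_fwd, eq_of_eqF h1]
  exact ⟨comm_of_cmF h2, n, by rw [h4, mul_inv_cancel_right]⟩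

/-- the data of an exception: short words `W` for the frame word and `c` for the candidate, and a certificate -/
structure SvD : Type where
  p : Fin 2 × FW
  e : ℕ
  W : List Ltr
  c : List Ltr
  ct : Ct

/-- the short word of the frame word -/
noncomputable def svA (r : SvD) : Bool := eqF (fwd r.p.2) r.W

/-- the short word of the candidate; `cW`, `eW` are short words for `fc`, `fe` -/
noncomputable def svB (cW : Fin 2 → List Ltr) (eW : Fin 2 → Fin 4 → List Ltr) (r : SvD) : Bool :=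
  eqF (cW r.p.1 ++ pw (eW r.p.1 0) (r.e / 27) ++ pw (eW r.p.1 1) (r.e / 9 % 3) ++ pw (eW r.p.1 2) (r.e / 3 % 3) ++
    pw (eW r.p.1 3) (r.e % 3) ++ r.W) (r.W ++ r.c)

/-- the certificate -/
noncomputable def svC (wA : List Ltr) (r : SvD) : Bool := ctB wA r.c r.ct

theorem sv_sound (hs : Cfsg.IsTh Cfsg.Spor.Th) {fc : Fin 2 → FW} {fe : Fin 2 → Fin 4 → FW} {cW : Fin 2 → List Ltr}
    {eW : Fin 2 → Fin 4 → List Ltr} (hc : ∀ k, g (cW k) = ev gen3 (fc k)) (he : ∀ k i, g (eW k i) = ev gen3 (fe k i))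
    {wA : List Ltr} (hA : g wA ^ 13 = 1) {r : SvD} (ha : svA r = true) (hb : svB cW eW r = true)
    (hd : svC wA r = true) : SvG fc fe (g wA) r.p r.e := by
  have h1 := eq_of_eqF ha
  have h2 := eq_of_eqF hb
  rw [g_fwd] at h1
  simp only [g_append, g_pw, hc, he] at h2
  unfold SvG Elt
  rw [h1, pow_zero, mul_one, mul_assoc, h2, inv_mul_cancel_left]
  exact ctB_sound hs hA hd

/-- the short word of the candidate, computed in the cheap position -/
noncomputable def svB' (wg wc : Fin 2 → List Ltr) (we : Fin 2 → Fin 4 → List Ltr) (r : SvD) : Bool :=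
  eqF (wg r.p.1 ++ (wc r.p.1 ++ pw (we r.p.1 0) (r.e / 27) ++ pw (we r.p.1 1) (r.e / 9 % 3) ++
    pw (we r.p.1 2) (r.e / 3 % 3) ++ pw (we r.p.1 3) (r.e % 3)) ++ winv (wg r.p.1) ++ r.W) (r.W ++ r.c)

theorem sv_sound' (hs : Cfsg.IsTh Cfsg.Spor.Th) {fc : Fin 2 → FW} {fe : Fin 2 → Fin 4 → FW}
    {wg wc : Fin 2 → List Ltr} {we : Fin 2 → Fin 4 → List Ltr}
    (hc : ∀ k, ev gen3 (fc k) = g (wg k) * g (wc k) * (g (wg k))⁻¹)
    (he : ∀ k i, ev gen3 (fe k i) = g (wg k) * g (we k i) * (g (wg k))⁻¹)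
    {wA : List Ltr} (hA : g wA ^ 13 = 1) {r : SvD} (ha : svA r = true) (hb : svB' wg wc we r = true)
    (hd : svC wA r = true) : SvG fc fe (g wA) r.p r.e := by
  have h1 := eq_of_eqF ha
  have h2 := eq_of_eqF hb
  rw [g_fwd] at h1
  simp only [g_append, g_pw, g_winv] at h2
  unfold SvG Elt
  rw [h1, pow_zero, mul_one, hc, he, he, he, he, conj_pow, conj_pow, conj_pow, conj_pow, conj_mul, conj_mul, conj_mul,
    conj_mul, mul_assoc, h2, inv_mul_cancel_left]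
  exact ctB_sound hs hA hd

/-- the list of all exceptions -/
def exs (L : List ((Fin 2 × FW) × List ℕ)) : List ((Fin 2 × FW) × ℕ) := L.flatMap fun q => q.2.map fun e => (q.1, e)

theorem sv_all {fc : Fin 2 → FW} {fe : Fin 2 → Fin 4 → FW} {A : G} {L : List ((Fin 2 × FW) × List ℕ)} {S : List SvD}
    (hE : exs L = S.map fun r => (r.p, r.e)) (hS : ∀ r ∈ S, SvG fc fe A r.p r.e) :
    ∀ q ∈ L, ∀ e ∈ q.2, SvG fc fe A q.1 e := by
  intro q hq e he
  have h1 : (q.1, e) ∈ exs L := List.mem_flatMap.2 ⟨q, hq, List.mem_map.2 ⟨e, he, rfl⟩⟩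
  rw [hE] at h1
  obtain ⟨r, hr, h2⟩ := List.mem_map.1 h1
  obtain ⟨h3, h4⟩ := Prod.mk.inj h2
  rw [← h3, ← h4]
  exact hS r hr

end Cfsg.Agent.BX.No33
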