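import Cfsg.Agent.BX.No33.Front
import Cfsg.Agent.BX.No33.Dead
import Cfsg.Agent.BX.Max.GlueLoc
import Cfsg.Prelude.Def_Spor_B
import Cfsg.Prelude.Def_Spor_Mathieu
set_option linter.all false
open scoped Cfsg.Agent.FastGrp

/-!
# No maximal `L₃(3)` in the Baby Monster, from the two families of dead triples (helper21)
-/

set_option autoImplicit false

namespace Cfsg.Agent.BX.No33

open Subgroup Cfsg.Agent.H819.U33 Cfsg.Agent.BX.Max
open Cfsg.Agent.H863.U33 (wy1)

/-- all triples through the element `A` are dead -/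
def AllDead (A : G) : Prop := ∀ c : G, c ^ 2 = 1 → (c * g wy1) ^ 2 = 1 → Dead A (g wy1) c

theorem noG_of (hD : AllDead (g Front.wAd)) (hP : AllDead (g Front.wAp)) {M : Subgroup G} (hM : IsCoatom M) :
    ¬ Nonempty (M ≃* T33) := by
  intro e
  obtain ⟨A, hA, m, c, h1, h2, h3⟩ := Front.front GlueLoc.locG.card (FrontA.nine_of_loc GlueLoc.locG) hM e
  have h4 : Dead A (g wy1) c := by
    rcases hA with rfl | rfl
    exacts [hD c h2.cp h2.cb, hP c h2.cp h2.cb]
  have h5 := h4 m 0 h1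
  rw [pow_zero, mul_one] at h5
  exact h5 h2 h3

theorem noB_of (hD : AllDead (g Front.wAd)) (hP : AllDead (g Front.wAp)) :
    ¬ ∃ M : Subgroup Cfsg.Spor.BabyMonster, IsCoatom M ∧
      Nonempty (↥M ≃* Matrix.ProjectiveSpecialLinearGroup (Fin 3) (ZMod 3)) := by
  rintro ⟨M, hM, ⟨e⟩⟩
  exact noG_of hD hP ((OrderIso.isCoatom_iff GlueLoc.isoG.mapSubgroup M).2 hM)
    ⟨(GlueLoc.isoG.subgroupMap M).symm.trans e⟩

end Cfsg.Agent.BX.No33
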