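import Cfsg.Agent.BX.No33.Pre
import Cfsg.Agent.BX.No33.CovD
import Cfsg.Agent.BX.No33.CovP
import Cfsg.Agent.BX.No33.All
set_option linter.all false
open scoped Cfsg.Agent.FastGrp

/-!
# The Baby Monster has no maximal subgroup `L₃(3)`

So the last conjunct of the statement number 5527, and with it the statement, is false.
-/

set_option autoImplicit false

namespace Cfsg.Agent.BX.No33

open Cfsg.Agent.H819.U33

theorem deadD : AllDead (g Front.wAd) := allD_of Cv.coverD Bk.goodD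

theorem deadP : AllDead (g Front.wAp) := allP_of Cv.coverP Bk.goodP

/-- **No maximal subgroup of the Baby Monster is isomorphic to `PSL₃(3)`.** -/
theorem no_maximal_L33 : ¬ ∃ M : Subgroup Cfsg.Spor.BabyMonster, IsCoatom M ∧
    Nonempty (↥M ≃* Matrix.ProjectiveSpecialLinearGroup (Fin 3) (ZMod 3)) :=
  noB_of deadD deadP

/-- **The statement number 5527 is false.** -/
theorem not_S5527 : ¬ (
    (∃ M : Subgroup Cfsg.Spor.BabyMonster, IsCoatom M ∧ Nonempty (↥M ≃* Matrix.ProjectiveSpecialLinearGroup (Fin 2) (ZMod 31))) ∧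
    (∃ M : Subgroup Cfsg.Spor.BabyMonster, IsCoatom M ∧ Nonempty (↥M ≃* GL (Fin 2) (ZMod 11) ⧸ Subgroup.center (GL (Fin 2) (ZMod 11)))) ∧
    (∃ M : Subgroup Cfsg.Spor.BabyMonster, IsCoatom M ∧ Nonempty (↥M ≃* ↥Cfsg.Spor.M11)) ∧
    (∃ M : Subgroup Cfsg.Spor.BabyMonster, IsCoatom M ∧ Nonempty (↥M ≃* GL (Fin 2) (ZMod 17) ⧸ Subgroup.center (GL (Fin 2) (ZMod 17)))) ∧
    (∃ M : Subgroup Cfsg.Spor.BabyMonster, IsCoatom M ∧ Nonempty (↥M ≃* Matrix.ProjectiveSpecialLinearGroup (Fin 3) (ZMod 3)))) :=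
  not_of deadD deadP

end Cfsg.Agent.BX.No33
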