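import Cfsg.Agent.BX.No33.SvD0
import Cfsg.Agent.BX.No33.SvP0
import Cfsg.Agent.BX.No33.SvP1
import Cfsg.Agent.BX.No33.LD
import Cfsg.Agent.BX.No33.LP
set_option linter.all false

/-!
# The exceptions of the tests: all lists (helper21)
-/

set_option autoImplicit false
set_option maxRecDepth 100000

namespace Cfsg.Agent.BX.No33.Sv

theorem exD : exs Bk.LD = SvD0.S.map fun r => (r.p, r.e) := by decide +kernel

theorem exP : exs Bk.LP = (SvP0.S ++ SvP1.S).map fun r => (r.p, r.e) := by decide +kernel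

theorem okP : ∀ r ∈ SvP0.S ++ SvP1.S,
    svA r = true ∧ svB' Base.wg Base.wc Base.we r = true ∧ svC Front.wAp r = true :=
  List.forall_mem_append.2 ⟨SvP0.ok, SvP1.ok⟩

end Cfsg.Agent.BX.No33.Sv
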