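import Cfsg.Agent.BX.No33.Last
import Cfsg.Agent.BX.No33.Sv
import Cfsg.Agent.BX.No33.Base
import Cfsg.Agent.BX.Frame.Glue3
import Cfsg.Agent.Th.Main1700
set_option linter.all false
open scoped Cfsg.Agent.FastGrp

/-!
# No maximal `L₃(3)` in the Baby Monster, from the two coverings and the tests (helper21)
-/

set_option autoImplicit false

namespace Cfsg.Agent.BX.No33

open Subgroup Cfsg.Agent.H819.U33

theorem all_of {wA : List BabyM.Conc.Ltr} (hA : g wA ^ 13 = 1) {fS : List FW}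
    (hS : ∀ s ∈ Cov.gp Frame.Fr3.gen3 fS ⊔ zpowers (g H863.U33.wy1),
      Commute s (g H863.U33.wy1) ∧ ∃ n : ℕ, s * g wA * s⁻¹ = g wA ^ n)
    {L : List ((Fin 2 × FW) × List ℕ)} (hM : CoverM fS (L.map Prod.fst) Base.fc Base.fe)
    (hG : ∀ q ∈ L, GoodG Base.fc Base.fe (g wA) q.1 q.2) {S : List SvD} (hE : exs L = S.map fun r => (r.p, r.e))
    (hV : ∀ r ∈ S, svA r = true ∧ svB' Base.wg Base.wc Base.we r = true ∧ svC wA r = true) : AllDead (g wA) :=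
  fun _ c2 cy => dead_all Frame.Fr3.h3 hA hS hM hG (sv_all hE fun r hr =>
    sv_sound' Th.Main1700.isTh Base.fc_eq Base.fe_eq hA (hV r hr).1 (hV r hr).2.1 (hV r hr).2.2) c2 cy

theorem not_of (hD : AllDead (g Front.wAd)) (hP : AllDead (g Front.wAp)) : ¬ (
    (∃ M : Subgroup Cfsg.Spor.BabyMonster, IsCoatom M ∧ Nonempty (↥M ≃* Matrix.ProjectiveSpecialLinearGroup (Fin 2) (ZMod 31))) ∧
    (∃ M : Subgroup Cfsg.Spor.BabyMonster, IsCoatom M ∧ Nonempty (↥M ≃* GL (Fin 2) (ZMod 11) ⧸ Subgroup.center (GL (Fin 2) (ZMod 11)))) ∧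
    (∃ M : Subgroup Cfsg.Spor.BabyMonster, IsCoatom M ∧ Nonempty (↥M ≃* ↥Cfsg.Spor.M11)) ∧
    (∃ M : Subgroup Cfsg.Spor.BabyMonster, IsCoatom M ∧ Nonempty (↥M ≃* GL (Fin 2) (ZMod 17) ⧸ Subgroup.center (GL (Fin 2) (ZMod 17)))) ∧
    (∃ M : Subgroup Cfsg.Spor.BabyMonster, IsCoatom M ∧ Nonempty (↥M ≃* Matrix.ProjectiveSpecialLinearGroup (Fin 3) (ZMod 3)))) :=
  fun h => noB_of hD hP h.2.2.2.2

theorem allD_of (hM : CoverM Base.fSd Bk.KD Base.fc Base.fe)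
    (hG : ∀ q ∈ Bk.LD, GoodG Base.fc Base.fe (g Front.wAd) q.1 q.2) : AllDead (g Front.wAd) :=
  all_of Base.Ad13 Base.hSd (Bk.LD_fst.symm ▸ hM) hG Sv.exD SvD0.ok

theorem allP_of (hM : CoverM Base.fSp Bk.KP Base.fc Base.fe)
    (hG : ∀ q ∈ Bk.LP, GoodG Base.fc Base.fe (g Front.wAp) q.1 q.2) : AllDead (g Front.wAp) :=
  all_of Base.Ap13 Base.hSp (Bk.LP_fst.symm ▸ hM) hG Sv.exP Sv.okP

end Cfsg.Agent.BX.No33
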