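import Cfsg.Agent.BX.No33.Dead
import Cfsg.Agent.BX.No33.Th
import Cfsg.Agent.BX.Frame.Fr3
set_option linter.all false
open scoped Cfsg.Agent.FastGrp

/-!
# Certificates for dead triples (helper21)

`ctB wA wc ct` checks that the triple `(g wA, y, g wc)` is dead; `fwd` is the word of a word in the frame.
-/

set_option autoImplicit false

namespace Cfsg.Agent.BX.No33

open Subgroup Cfsg.Agent.H819.U33 Cfsg.Agent.BMx.Fast Cfsg.Agent.BX.Cov Cfsg.Agent.BX.Frame.Fr3
open Cfsg.Agent.BabyM.Conc (Ltr)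
open Cfsg.Agent.BabyM.TransInv (winv)
open Cfsg.Agent.H863.U33 (wy1)

/-- the word of a word in the generators of the frame -/
def fwd : List (Fin 18 × ℕ) → List Ltr
  | [] => []
  | q :: w => pw (wgen3 q.1) q.2 ++ fwd w

theorem g_fwd (w : List (Fin 18 × ℕ)) : g (fwd w) = ev gen3 w := by
  induction w with
  | nil => exact g_nil
  | cons q w ih => rw [fwd, g_append, g_pw, ih, ev_cons]; rfl

/-- the letters `0 = A`, `1 = y`, `2 = c`, `3 = A⁻¹`, `4 = y⁻¹` -/
def l3 (wA wc : List Ltr) : ℕ → List Ltr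
  | 0 => wA
  | 1 => wy1
  | 2 => wc
  | 3 => winv wA
  | _ => winv wy1

/-- a word in `A`, `y`, `c` -/
def w3 (wA wc : List Ltr) : List ℕ → List Ltr
  | [] => []
  | i :: l => l3 wA wc i ++ w3 wA wc l

theorem w3_mem (wA wc : List Ltr) (l : List ℕ) : g (w3 wA wc l) ∈ closure ({g wA, g wy1, g wc} : Set G) := by
  induction l with
  | nil => rw [w3, g_nil]; exact one_mem _
  | cons i l ih =>
    rw [w3, g_append]
    refine mul_mem ?_ ih
    unfold l3
    split
    · exact mem_a _ _ _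
    · exact mem_b _ _ _
    · exact mem_c _ _ _
    · rw [g_winv]; exact inv_mem (mem_a _ _ _)
    · rw [g_winv]; exact inv_mem (mem_b _ _ _)

/-- certificates: a centralising element `s` with `s t ≠ t s`; a word `l`, its short form `x` and its order `k`;
an element `s` with `s A s⁻¹ = a ^ j`, `s y s⁻¹ = y`, `s c s⁻¹ = c₀ y ^ n` for the triple in the Thompson group -/
inductive Ct : Type
  | comm (s t : List Ltr) : Ct
  | ord (l : List ℕ) (x : List Ltr) (k : ℕ) : Ct
  | th (s : List Ltr) (j n : ℕ) : Ct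

/-- two words commute -/
noncomputable def cmF (v w : List Ltr) : Bool := eqF (v ++ w) (w ++ v)

theorem comm_of_cmF {v w : List Ltr} (h : cmF v w = true) : g v * g w = g w * g v := by
  rw [← g_append, ← g_append]
  exact eq_of_eqF h

/-- the check of a certificate -/
noncomputable def ctB (wA wc : List Ltr) (ct : Ct) : Bool :=
  Ct.rec (motive := fun _ => Bool)
    (fun s t => and (and (cmF s wA) (cmF s wy1)) (and (cmF s wc) (neF (s ++ t) (t ++ s))))
    (fun l x k => and (and (decide (¬ k ∣ 6 ∧ ¬ k ∣ 8 ∧ ¬ k ∣ 13)) (eqF (w3 wA wc l) x)) (ordF x k))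
    (fun s j n => and (and (eqF (s ++ wA) (pw Th.wa j ++ s)) (cmF s wy1)) (eqF (s ++ wc) (Th.wc ++ pw wy1 n ++ s))) ct

theorem dead_th (hs : Cfsg.IsTh Cfsg.Spor.Th) : Dead (g Th.wa) (g wy1) (g Th.wc) :=
  dead_of_le (fun _ hM hc => Th.not_coatom hs (g Th.wt) hM hc) Th.a_mem Th.b_mem Th.c_mem

theorem ctB_sound (hs : Cfsg.IsTh Cfsg.Spor.Th) {wA wc : List Ltr} (hA : g wA ^ 13 = 1) {ct : Ct}
    (h : ctB wA wc ct = true) : Dead (g wA) (g wy1) (g wc) := by
  cases ct with
  | comm s t =>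
    have h' : and (and (cmF s wA) (cmF s wy1)) (and (cmF s wc) (neF (s ++ t) (t ++ s))) = true := h
    simp only [Bool.and_eq_true] at h'
    refine dead_of_comm (t := g t) (comm_of_cmF h'.1.1) (comm_of_cmF h'.1.2) (comm_of_cmF h'.2.1) ?_
    rw [← g_append, ← g_append]
    exact ne_of_neF h'.2.2
  | ord l x k =>
    have h' : and (and (decide (¬ k ∣ 6 ∧ ¬ k ∣ 8 ∧ ¬ k ∣ 13)) (eqF (w3 wA wc l) x)) (ordF x k) = true := h
    rw [Bool.and_eq_true, Bool.and_eq_true] at h'
    exact dead_of_ord hA (eq_of_eqF h'.1.2 ▸ w3_mem wA wc l) (orderOf_of_ordF h'.2) (of_decide_eq_true h'.1.1)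
  | th s j n =>
    have h' : and (and (eqF (s ++ wA) (pw Th.wa j ++ s)) (cmF s wy1))
      (eqF (s ++ wc) (Th.wc ++ pw wy1 n ++ s)) = true := h
    rw [Bool.and_eq_true, Bool.and_eq_true] at h'
    have h1 := eq_of_eqF h'.1.1
    have h2 := comm_of_cmF h'.1.2
    have h3 := eq_of_eqF h'.2
    rw [g_append, g_append, g_pw] at h1
    rw [g_append, g_append, g_append, g_pw] at h3
    refine Dead.conj (g s) ?_
    rw [h1, h2, h3, mul_inv_cancel_right, mul_inv_cancel_right, mul_inv_cancel_right]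
    exact ((dead_th hs).pow j).mul_pow n

end Cfsg.Agent.BX.No33
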